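import Cfsg.Agent.Lib.Helper14.SU5.Defs

set_option autoImplicit false

namespace Cfsg.Agent.Lib.Helper14.SU5

open Cfsg Cfsg.Geo Cfsg.Agent.Lib.Helper32.AschU
open Cfsg.Agent.Lib.Helper43.TT54 (Q4)
open scoped MatrixGroups Matrix

variable {F : Type*} [Field F]

open Cfsg.Agent.Lib.Helper43.TT54.Q4 in
def centqA2 : M5 Q4 := !![v, v, z, z, o; o, w, z, z, o; o, v, v, v, v; o, v, o, w, v; v, w, o, v, w]
open Cfsg.Agent.Lib.Helper43.TT54.Q4 in
def centqA3 : M5 Q4 := !![o, v, v, v, v; o, v, o, w, v; w, o, o, v, w; w, w, o, v, o; w, v, v, w, v]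
open Cfsg.Agent.Lib.Helper43.TT54.Q4 in
def centqA4 : M5 Q4 := !![w, o, o, v, w; w, w, o, v, o; w, v, w, o, v; o, o, w, w, o; v, v, w, v, v]

/-- the general element of `F_4[aM]`. -/
def centqM (a0 a1 a2 a3 a4 : Q4) : M5 Q4 :=
  a0 • (1 : M5 Q4) + a1 • aM + a2 • centqA2 + a3 • centqA3 + a4 • centqA4

/-- the coefficients of the powers of `aM`. -/
def centqC : Fin 11 → Fin 5 → Q4 :=
  open Cfsg.Agent.Lib.Helper43.TT54.Q4 in
  ![![o, z, z, z, z], ![z, o, z, z, z], ![z, z, o, z, z], ![z, z, z, o, z], ![z, z, z, z, o],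
    ![o, w, o, o, v], ![v, z, o, w, v], ![v, w, v, w, z], ![z, v, w, v, w], ![w, v, o, z, w],
    ![w, o, o, v, o]]

theorem centq_pow2 : aM ^ 2 = centqA2 := by
  rw [pow_two]; decide +kernel

theorem centq_pow3 : aM ^ 3 = centqA3 := by
  rw [pow_succ, centq_pow2]; decide +kernel

theorem centq_pow4 : aM ^ 4 = centqA4 := by
  rw [pow_succ, centq_pow3]; decide +kernel

/-- one step: multiplication by `aM` on coefficient vectors. -/
theorem centq_step : ∀ j : Fin 10,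
    centqM (centqC j.castSucc 0) (centqC j.castSucc 1) (centqC j.castSucc 2) (centqC j.castSucc 3)
      (centqC j.castSucc 4) * aM =
    centqM (centqC j.succ 0) (centqC j.succ 1) (centqC j.succ 2) (centqC j.succ 3) (centqC j.succ 4) := by
  decide +kernel

theorem centq_zero : centqM (centqC 0 0) (centqC 0 1) (centqC 0 2) (centqC 0 3) (centqC 0 4) = 1 := by
  decide +kernel

theorem centq_pow (j : Fin 11) :
    aM ^ (j : ℕ) = centqM (centqC j 0) (centqC j 1) (centqC j 2) (centqC j 3) (centqC j 4) := by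
  induction j using Fin.induction with
  | zero => rw [centq_zero]; rfl
  | succ i ih =>
    rw [Fin.val_succ, pow_succ, ← centq_step i, ← ih, Fin.val_castSucc]

theorem centq_dec : ∀ a0 a1 a2 a3 a4 : Q4,
    ((centqM a0 a1 a2 a3 a4).map (fun x => x ^ 2))ᵀ * centqM a0 a1 a2 a3 a4 = 1 →
    ∃ (l : Q4) (j : Fin 11), a0 = l * centqC j 0 ∧ a1 = l * centqC j 1 ∧ a2 = l * centqC j 2 ∧
      a3 = l * centqC j 3 ∧ a4 = l * centqC j 4 := by
  decide +kernel

theorem centQ (a0 a1 a2 a3 a4 : Q4)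
    (h : ((a0 • (1 : M5 Q4) + a1 • aM + a2 • aM ^ 2 + a3 • aM ^ 3 + a4 • aM ^ 4).map (fun x => x ^ 2))ᵀ *
      (a0 • (1 : M5 Q4) + a1 • aM + a2 • aM ^ 2 + a3 • aM ^ 3 + a4 • aM ^ 4) = 1) :
    ∃ (l : Q4) (j : Fin 11),
      a0 • (1 : M5 Q4) + a1 • aM + a2 • aM ^ 2 + a3 • aM ^ 3 + a4 • aM ^ 4 = l • aM ^ (j : ℕ) := by
  rw [centq_pow2, centq_pow3, centq_pow4] at h ⊢
  obtain ⟨l, j, h0, h1, h2, h3, h4⟩ := centq_dec a0 a1 a2 a3 a4 h
  refine ⟨l, j, ?_⟩
  rw [centq_pow j, h0, h1, h2, h3, h4]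
  unfold centqM
  simp only [smul_add, smul_smul]

end Cfsg.Agent.Lib.Helper14.SU5
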