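import Cfsg.Agent.Lib.Helper14.SU5.Defs

set_option autoImplicit false

namespace Cfsg.Agent.Lib.Helper14.SU5

open Cfsg Cfsg.Geo Cfsg.Agent.Lib.Helper32.AschU
open Cfsg.Agent.Lib.Helper43.TT54 (Q4)
open scoped MatrixGroups Matrix

variable {F : Type*} [Field F]

set_option maxRecDepth 100000 in
theorem cyc_e_mul : eM * eI = 1 := by decide

set_option maxRecDepth 100000 in
theorem cyc_col0 : eM = Matrix.of (fun i j : Fin 5 => (aM ^ (j : ℕ)) i 0) := by decide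

theorem cyc_col (i j : Fin 5) : eM i j = (aM ^ (j : ℕ)) i 0 := by
  conv_lhs => rw [cyc_col0]
  rfl

theorem cyc (e : Q4 ≃+* F) (c : M5 F) (h : c * (A e : M5 F) = (A e : M5 F) * c) :
    ∃ a0 a1 a2 a3 a4 : F, c = a0 • (1 : M5 F) + a1 • (A e : M5 F) + a2 • (A e : M5 F) ^ 2 +
      a3 • (A e : M5 F) ^ 3 + a4 • (A e : M5 F) ^ 4 := by
  obtain ⟨Am, hAm⟩ : ∃ Am : M5 F, Am = (A e : M5 F) := ⟨_, rfl⟩
  rw [← hAm] at h ⊢
  have hAm' : Am = (RingHom.mapMatrix (e : Q4 →+* F)) aM := hAm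
  obtain ⟨E, hE⟩ : ∃ E : M5 F, E = (RingHom.mapMatrix (e : Q4 →+* F)) eM := ⟨_, rfl⟩
  obtain ⟨EI, hEI⟩ : ∃ E : M5 F, E = (RingHom.mapMatrix (e : Q4 →+* F)) eI := ⟨_, rfl⟩
  have hEE : E * EI = 1 := by
    rw [hE, hEI, ← map_mul, cyc_e_mul, map_one]
  have hcol : ∀ i j : Fin 5, E i j = (Am ^ (j : ℕ)) i 0 := by
    intro i j
    rw [hAm', ← map_pow, hE, RingHom.mapMatrix_apply, RingHom.mapMatrix_apply, Matrix.map_apply,
      Matrix.map_apply, cyc_col]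
  obtain ⟨a, ha⟩ : ∃ a : Fin 5 → F, a = EI *ᵥ (fun i => c i 0) := ⟨_, rfl⟩
  obtain ⟨d, hd⟩ : ∃ d : M5 F, d = c - ∑ j : Fin 5, a j • Am ^ (j : ℕ) := ⟨_, rfl⟩
  have hdc : ∀ k : ℕ, d * Am ^ k = Am ^ k * d := by
    have h1 : Commute d Am := by
      rw [hd]
      apply Commute.sub_left h
      apply Commute.sum_left
      intro j _
      exact ((Commute.refl Am).pow_left _).smul_left _
    intro k
    exact (h1.pow_right k)
  have hd0 : ∀ i, d i 0 = 0 := by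
    intro i
    have h1 : (E *ᵥ a) i = c i 0 := by
      rw [ha, Matrix.mulVec_mulVec, hEE, Matrix.one_mulVec]
    rw [hd, Matrix.sub_apply, Matrix.sum_apply, ← h1, Matrix.mulVec, dotProduct, sub_eq_zero]
    apply Finset.sum_congr rfl
    intro j _
    rw [Matrix.smul_apply, hcol, smul_eq_mul, mul_comm]
  have hdE : d * E = 0 := by
    ext i j
    rw [Matrix.mul_apply, Matrix.zero_apply]
    have h2 : (d * Am ^ (j : ℕ)) i 0 = 0 := by
      rw [hdc, Matrix.mul_apply]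
      simp [hd0]
    rw [← h2, Matrix.mul_apply]
    apply Finset.sum_congr rfl
    intro k _
    rw [hcol]
  have hd00 : d = 0 := by
    calc d = d * (E * EI) := by rw [hEE, mul_one]
      _ = 0 := by rw [← mul_assoc, hdE, zero_mul]
  refine ⟨a 0, a 1, a 2, a 3, a 4, ?_⟩
  rw [hd00] at hd
  rw [sub_eq_zero.mp hd.symm, Fin.sum_univ_five]
  simp

end Cfsg.Agent.Lib.Helper14.SU5
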