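import Cfsg.Agent.Lib.Helper14.SU5.Defs
import Cfsg.Agent.Lib.Helper14.SU5.CYC
import Cfsg.Agent.Lib.Helper14.SU5.CENTQ
import Cfsg.Agent.Lib.Helper50.GUConj

set_option autoImplicit false

namespace Cfsg.Agent.Lib.Helper14.SU5

open Cfsg Cfsg.Geo Cfsg.Agent.Lib.Helper32.AschU
open Cfsg.Agent.Lib.Helper43.TT54 (Q4)
open scoped MatrixGroups Matrix

variable {F : Type*} [Field F]

theorem cent [Fintype F] (hF : Fintype.card F = 2 ^ 2) (e : Q4 ≃+* F) (c : GL (Fin 5) F)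
    (hc : c ∈ GU 5 F 2) (h : c * A e = A e * c) :
    ∃ (l : F) (m : ℕ), (c : M5 F) = l • ((A e ^ m : GL (Fin 5) F) : M5 F) := by
  have h' : (c : M5 F) * (A e : M5 F) = (A e : M5 F) * (c : M5 F) := by
    rw [← Units.val_mul, h, Units.val_mul]
  obtain ⟨a0, a1, a2, a3, a4, hcc⟩ := cyc e (c : M5 F) h'
  obtain ⟨b0, rfl⟩ := e.surjective a0
  obtain ⟨b1, rfl⟩ := e.surjective a1
  obtain ⟨b2, rfl⟩ := e.surjective a2
  obtain ⟨b3, rfl⟩ := e.surjective a3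
  obtain ⟨b4, rfl⟩ := e.surjective a4
  have hA : (A e : M5 F) = (RingHom.mapMatrix (e : Q4 →+* F)) aM := rfl
  have hsm : ∀ (b : Q4) (M : M5 Q4), (RingHom.mapMatrix (e : Q4 →+* F)) (b • M)
      = e b • (RingHom.mapMatrix (e : Q4 →+* F)) M := by
    intro b M
    ext i j
    simp [RingHom.mapMatrix_apply, Matrix.map_apply, Matrix.smul_apply]
  obtain ⟨cQ, hcQ⟩ : ∃ cQ : M5 Q4, cQ = b0 • (1 : M5 Q4) + b1 • aM + b2 • aM ^ 2 + b3 • aM ^ 3 +
      b4 • aM ^ 4 := ⟨_, rfl⟩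
  have hcm : (c : M5 F) = (RingHom.mapMatrix (e : Q4 →+* F)) cQ := by
    rw [hcc, hcQ, hA]
    simp only [map_add, hsm, map_pow, map_one]
  have hinj : Function.Injective (RingHom.mapMatrix (e : Q4 →+* F) : M5 Q4 → M5 F) := by
    intro X Y hXY
    ext i j
    have h1 := congrFun (congrFun hXY i) j
    simp only [RingHom.mapMatrix_apply, Matrix.map_apply] at h1
    exact e.injective h1
  have hU := (Cfsg.Agent.Lib.Helper50.GUConj.mem_GU_iff_dag hF c).mp hc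
  rw [Cfsg.Agent.Lib.Helper50.GUConj.dag_eq] at hU
  have hd : (((c : M5 F)).map (fun a : F => a ^ 2))ᵀ
      = (RingHom.mapMatrix (e : Q4 →+* F)) ((cQ.map (fun x => x ^ 2))ᵀ) := by
    rw [hcm]
    ext i j
    simp [RingHom.mapMatrix_apply, Matrix.map_apply, Matrix.transpose_apply]
  rw [hd, hcm, ← map_mul] at hU
  have hU' : (cQ.map (fun x => x ^ 2))ᵀ * cQ = 1 := hinj (by rw [hU, map_one])
  rw [hcQ] at hU'
  obtain ⟨l, j, hlj⟩ := centQ b0 b1 b2 b3 b4 hU'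
  refine ⟨e l, (j : ℕ), ?_⟩
  rw [hcm, hcQ, hlj, hsm, map_pow, Units.val_pow_eq_pow_val, hA]

end Cfsg.Agent.Lib.Helper14.SU5
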