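import Mathlib
import Cfsg.Agent.Lib.Helper43.TT54Q4
import Cfsg.Agent.Lib.Helper32.AschU.Defs

/-! Ladder SU5 (S5796): for q = 2 the field-extension normaliser 11:5 is not maximal in SU_5(2)
(it lies in L_2(11)). Explicit data over the concrete field Q4 of helper43. -/

set_option autoImplicit false

namespace Cfsg.Agent.Lib.Helper14.SU5

open Cfsg Cfsg.Geo Cfsg.Agent.Lib.Helper32.AschU
open Cfsg.Agent.Lib.Helper43.TT54 (Q4)
open scoped MatrixGroups Matrix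

abbrev M5 (R : Type*) := Matrix (Fin 5) (Fin 5) R

open Cfsg.Agent.Lib.Helper43.TT54.Q4 in
def aM : M5 Q4 := !![z, z, o, z, z; z, z, z, o, z; v, v, z, z, o; o, w, z, z, o; o, v, z, z, v]
open Cfsg.Agent.Lib.Helper43.TT54.Q4 in
def aI : M5 Q4 := !![z, z, w, o, o; z, z, w, v, w; o, z, z, z, z; z, o, z, z, z; z, z, o, o, w]
open Cfsg.Agent.Lib.Helper43.TT54.Q4 in
def bM : M5 Q4 := !![w, z, o, v, z; z, o, v, w, z; o, o, v, z, z; v, v, z, o, z; z, z, z, z, o]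
open Cfsg.Agent.Lib.Helper43.TT54.Q4 in
def bI : M5 Q4 := !![v, z, o, w, z; z, o, o, w, z; o, w, w, z, z; w, v, z, o, z; z, z, z, z, o]
open Cfsg.Agent.Lib.Helper43.TT54.Q4 in
def tM : M5 Q4 := !![z, z, o, z, z; z, z, z, w, z; o, z, z, z, z; z, v, z, z, z; z, z, z, z, o]
open Cfsg.Agent.Lib.Helper43.TT54.Q4 in
def sM : M5 Q4 := !![z, o, z, z, z; o, z, z, z, z; z, z, o, z, z; z, z, z, o, z; z, z, z, z, o]
-- columns e0, A e0, ..., A^4 e0
open Cfsg.Agent.Lib.Helper43.TT54.Q4 in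
def eM : M5 Q4 := !![o, z, v, o, w; z, z, o, o, w; z, v, o, w, w; z, o, o, w, o; z, o, v, w, v]
-- inverse of eM
open Cfsg.Agent.Lib.Helper43.TT54.Q4 in
def eI : M5 Q4 := !![o, z, w, o, z; z, o, o, v, o; z, v, o, v, z; z, v, v, v, o; z, v, o, z, v]
-- the orbit of length 55 of L_2(11) = ⟨A, B, T⟩ on vectors
open Cfsg.Agent.Lib.Helper43.TT54.Q4 in
def omL : List (Fin 5 → Q4) :=
  [![z, z, o, z, z], ![o, z, z, z, z], ![o, v, v, z, z], ![z, z, v, o, o],
   ![w, z, o, v, z], ![v, z, o, z, v], ![o, o, z, o, z], ![v, z, o, w, z],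
   ![v, o, o, o, v], ![z, z, w, o, o], ![v, w, z, z, o], ![o, v, o, w, w],
   ![z, w, o, w, z], ![o, o, w, z, z], ![o, z, o, z, o], ![z, v, z, w, v],
   ![o, z, v, z, v], ![z, o, z, v, w], ![o, v, z, o, z], ![z, w, o, v, z],
   ![o, w, w, v, v], ![o, o, w, w, w], ![o, w, v, v, v], ![w, o, o, o, v],
   ![o, v, o, o, o], ![w, w, z, z, o], ![o, w, o, v, o], ![o, w, v, w, w],
   ![w, v, o, v, w], ![w, z, z, v, w], ![o, z, w, z, w], ![v, v, w, v, o],
   ![v, z, z, w, v], ![z, v, o, z, w], ![w, z, o, z, w], ![z, o, o, z, v],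
   ![o, v, o, v, o], ![w, v, o, o, w], ![w, w, w, o, v], ![v, v, o, o, w],
   ![o, o, o, v, v], ![o, z, z, v, v], ![z, w, o, z, o], ![o, w, o, w, o],
   ![o, v, v, v, v], ![o, z, z, o, o], ![o, o, o, o, o], ![z, o, w, z, w],
   ![z, v, v, z, v], ![w, o, v, w, o], ![o, z, z, w, w], ![o, o, o, w, o],
   ![o, w, w, w, w], ![v, w, v, o, w], ![v, o, o, w, v]]

set_option maxRecDepth 100000 in
theorem a_mul : aM * aI = 1 := by decide
set_option maxRecDepth 100000 in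
theorem a_mul' : aI * aM = 1 := by decide
set_option maxRecDepth 100000 in
theorem b_mul : bM * bI = 1 := by decide
set_option maxRecDepth 100000 in
theorem b_mul' : bI * bM = 1 := by decide
set_option maxRecDepth 100000 in
theorem t_mul : tM * tM = 1 := by decide
set_option maxRecDepth 100000 in
theorem s_mul : sM * sM = 1 := by decide

def aG : GL (Fin 5) Q4 := ⟨aM, aI, a_mul, a_mul'⟩
def bG : GL (Fin 5) Q4 := ⟨bM, bI, b_mul, b_mul'⟩
def tG : GL (Fin 5) Q4 := ⟨tM, tM, t_mul, t_mul⟩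
def sG : GL (Fin 5) Q4 := ⟨sM, sM, s_mul, s_mul⟩

variable {F : Type*} [Field F]

/-- transport of matrices along a ring isomorphism Q4 ≃+* F -/
noncomputable def Ph (e : Q4 ≃+* F) : GL (Fin 5) Q4 →* GL (Fin 5) F :=
  Matrix.GeneralLinearGroup.map (e : Q4 →+* F)

noncomputable def A (e : Q4 ≃+* F) : GL (Fin 5) F := Ph e aG
noncomputable def B (e : Q4 ≃+* F) : GL (Fin 5) F := Ph e bG
noncomputable def T (e : Q4 ≃+* F) : GL (Fin 5) F := Ph e tG
noncomputable def S (e : Q4 ≃+* F) : GL (Fin 5) F := Ph e sG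

theorem Ph_val (e : Q4 ≃+* F) (g : GL (Fin 5) Q4) :
    ((Ph e g : GL (Fin 5) F) : M5 F) = (g : M5 Q4).map e := rfl

/-- the 55 vectors over F -/
def Om (e : Q4 ≃+* F) : Set (Fin 5 → F) := {v | ∃ u ∈ omL, v = fun i => e (u i)}

/-- stabiliser of a set of vectors -/
def Stab (X : Set (Fin 5 → F)) : Subgroup (GL (Fin 5) F) where
  carrier := {g | ∀ v, v ∈ X ↔ (g : M5 F) *ᵥ v ∈ X}
  mul_mem' {a b} ha hb := by
    intro v
    rw [hb v, ha, Units.val_mul, Matrix.mulVec_mulVec]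
  one_mem' := by
    intro v
    simp
  inv_mem' {a} ha := by
    intro v
    have h := ha (((a⁻¹ : GL (Fin 5) F) : M5 F) *ᵥ v)
    rw [Matrix.mulVec_mulVec, ← Units.val_mul, mul_inv_cancel, Units.val_one, Matrix.one_mulVec] at h
    exact h.symm

theorem mem_Stab (X : Set (Fin 5 → F)) (g : GL (Fin 5) F) :
    g ∈ Stab X ↔ ∀ v, v ∈ X ↔ (g : M5 F) *ᵥ v ∈ X := Iff.rfl

end Cfsg.Agent.Lib.Helper14.SU5
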