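import Cfsg.Agent.Lib.Helper14.SU5.Defs
import Cfsg.Agent.Lib.Helper50.GUConj

set_option autoImplicit false

namespace Cfsg.Agent.Lib.Helper14.SU5

open Cfsg Cfsg.Geo Cfsg.Agent.Lib.Helper32.AschU
open Cfsg.Agent.Lib.Helper43.TT54 (Q4)
open scoped MatrixGroups Matrix

variable {F : Type*} [Field F]

/-- membership in `GU` from the identity `(M^(2))ᵀ * M = 1` over `Q4`. -/
theorem mem_gu [Fintype F] (hF : Fintype.card F = 2 ^ 2) (e : Q4 ≃+* F) (g : GL (Fin 5) Q4)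
    (h : ((g : M5 Q4).map (fun a => a ^ 2))ᵀ * (g : M5 Q4) = 1) : Ph e g ∈ GU 5 F 2 := by
  rw [Cfsg.Agent.Lib.Helper50.GUConj.mem_GU_iff_dag hF, Cfsg.Agent.Lib.Helper50.GUConj.dag_eq, Ph_val]
  have h1 : (((g : M5 Q4).map e).map (fun a : F => a ^ 2))ᵀ
      = (((g : M5 Q4).map (fun a => a ^ 2))ᵀ).map e := by
    ext i j
    simp [Matrix.map_apply, Matrix.transpose_apply, map_pow]
  rw [h1]
  have h2 := congrArg (fun M : M5 Q4 => M.map (e : Q4 →+* F)) h
  simp only [Matrix.map_mul] at h2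
  rw [Matrix.map_one _ (map_zero _) (map_one _)] at h2
  exact h2

/-- determinant one from the order. -/
theorem mem_sl [Fintype F] (hF : Fintype.card F = 2 ^ 2) (g : GL (Fin 5) F) (k : ℕ) (hk : Nat.Coprime k 3)
    (h : g ^ k = 1) : g ∈ specialLinear (Fin 5) F := by
  rw [specialLinear, MonoidHom.mem_ker]
  set d : Fˣ := Matrix.GeneralLinearGroup.det g with hd
  have h1 : d ^ k = 1 := by rw [hd, ← map_pow, h, map_one]
  have h2 : d ^ 3 = 1 := by
    apply Units.ext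
    rw [Units.val_pow_eq_pow_val, Units.val_one]
    have h3 := FiniteField.pow_card_sub_one_eq_one (d : F) d.ne_zero
    rw [hF] at h3
    exact h3
  have h4 : orderOf d ∣ k := orderOf_dvd_of_pow_eq_one h1
  have h5 : orderOf d ∣ 3 := orderOf_dvd_of_pow_eq_one h2
  exact orderOf_eq_one_iff.1 (Nat.eq_one_of_dvd_coprimes hk h4 h5)

set_option maxRecDepth 1000000 in
theorem mem_a1 : (aM.map (fun a => a ^ 2))ᵀ * aM = 1 := by decide +kernel
set_option maxRecDepth 1000000 in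
theorem mem_b1 : (bM.map (fun a => a ^ 2))ᵀ * bM = 1 := by decide +kernel
set_option maxRecDepth 1000000 in
theorem mem_t1 : (tM.map (fun a => a ^ 2))ᵀ * tM = 1 := by decide +kernel
set_option maxRecDepth 1000000 in
theorem mem_s1 : (sM.map (fun a => a ^ 2))ᵀ * sM = 1 := by decide +kernel

set_option maxRecDepth 1000000 in
theorem mem_a2 : aM * aM * aM * aM * aM * aM * aM * aM * aM * aM * aM = 1 := by decide +kernel
set_option maxRecDepth 1000000 in
theorem mem_b2 : bM * bM * bM * bM * bM = 1 := by decide +kernel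

theorem mem_aG : aG ^ 11 = 1 := by
  apply Units.ext
  rw [Units.val_pow_eq_pow_val, Units.val_one]
  show aM ^ 11 = 1
  rw [← mem_a2]
  simp only [pow_succ, pow_zero, one_mul]

theorem mem_bG : bG ^ 5 = 1 := by
  apply Units.ext
  rw [Units.val_pow_eq_pow_val, Units.val_one]
  show bM ^ 5 = 1
  rw [← mem_b2]
  simp only [pow_succ, pow_zero, one_mul]

theorem mem_tG : tG ^ 2 = 1 := by
  apply Units.ext
  rw [Units.val_pow_eq_pow_val, Units.val_one]
  show tM ^ 2 = 1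
  rw [sq, t_mul]

theorem mem_sG : sG ^ 2 = 1 := by
  apply Units.ext
  rw [Units.val_pow_eq_pow_val, Units.val_one]
  show sM ^ 2 = 1
  rw [sq, s_mul]

theorem A_mem [Fintype F] (hF : Fintype.card F = 2 ^ 2) (e : Q4 ≃+* F) : A e ∈ SUg 5 F 2 :=
  ⟨mem_gu hF e aG mem_a1, mem_sl hF _ 11 (by norm_num) (by rw [A, ← map_pow, mem_aG, map_one])⟩

theorem B_mem [Fintype F] (hF : Fintype.card F = 2 ^ 2) (e : Q4 ≃+* F) : B e ∈ SUg 5 F 2 :=
  ⟨mem_gu hF e bG mem_b1, mem_sl hF _ 5 (by norm_num) (by rw [B, ← map_pow, mem_bG, map_one])⟩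

theorem T_mem [Fintype F] (hF : Fintype.card F = 2 ^ 2) (e : Q4 ≃+* F) : T e ∈ SUg 5 F 2 :=
  ⟨mem_gu hF e tG mem_t1, mem_sl hF _ 2 (by norm_num) (by rw [T, ← map_pow, mem_tG, map_one])⟩

theorem S_mem [Fintype F] (hF : Fintype.card F = 2 ^ 2) (e : Q4 ≃+* F) : S e ∈ SUg 5 F 2 :=
  ⟨mem_gu hF e sG mem_s1, mem_sl hF _ 2 (by norm_num) (by rw [S, ← map_pow, mem_sG, map_one])⟩

end Cfsg.Agent.Lib.Helper14.SU5
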