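import Cfsg.Agent.Lib.Helper14.SU5.Defs

set_option autoImplicit false

namespace Cfsg.Agent.Lib.Helper14.SU5

open Cfsg Cfsg.Geo Cfsg.Agent.Lib.Helper32.AschU
open Cfsg.Agent.Lib.Helper43.TT54 (Q4)
open scoped MatrixGroups Matrix

variable {F : Type*} [Field F]

open Cfsg.Agent.Lib.Helper43.TT54.Q4 in
def aP2 : M5 Q4 := !![v, v, z, z, o; o, w, z, z, o; o, v, v, v, v; o, v, o, w, v; v, w, o, v, w]
open Cfsg.Agent.Lib.Helper43.TT54.Q4 in
def aP3 : M5 Q4 := !![o, v, v, v, v; o, v, o, w, v; w, o, o, v, w; w, w, o, v, o; w, v, v, w, v]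
open Cfsg.Agent.Lib.Helper43.TT54.Q4 in
def aP4 : M5 Q4 := !![w, o, o, v, w; w, w, o, v, o; w, v, w, o, v; o, o, w, w, o; v, v, w, v, v]
open Cfsg.Agent.Lib.Helper43.TT54.Q4 in
def aP5 : M5 Q4 := !![w, v, w, o, v; o, o, w, w, o; v, o, w, v, o; w, o, o, o, v; o, w, v, v, v]
open Cfsg.Agent.Lib.Helper43.TT54.Q4 in
def aP6 : M5 Q4 := !![v, o, w, v, o; w, o, o, o, v; v, v, v, o, w; o, v, w, o, w; w, o, o, w, w]
open Cfsg.Agent.Lib.Helper43.TT54.Q4 in
def aP7 : M5 Q4 := !![v, v, v, o, w; o, v, w, o, w; o, o, v, v, v; w, w, o, v, w; v, o, w, o, w]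
open Cfsg.Agent.Lib.Helper43.TT54.Q4 in
def aP8 : M5 Q4 := !![o, o, v, v, v; w, w, o, v, w; w, o, o, o, w; w, v, w, w, v; w, w, v, o, w]
open Cfsg.Agent.Lib.Helper43.TT54.Q4 in
def aP9 : M5 Q4 := !![w, o, o, o, w; w, v, w, w, v; z, z, w, o, o; z, z, w, v, w; o, o, w, w, v]
open Cfsg.Agent.Lib.Helper43.TT54.Q4 in
def aP10 : M5 Q4 := !![z, z, w, o, o; z, z, w, v, w; o, z, z, z, z; z, o, z, z, z; z, z, o, o, w]

/-- the table of powers of `aM` -/
def aPw : Fin 11 → M5 Q4 := ![1, aM, aP2, aP3, aP4, aP5, aP6, aP7, aP8, aP9, aP10]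

set_option maxRecDepth 100000 in
theorem aPw_succ : ∀ k : Fin 11, aPw k * aM = aPw (k + 1) := by decide +kernel

theorem aM_pow_eq (k : ℕ) : aM ^ k = aPw ⟨k % 11, Nat.mod_lt _ (by norm_num)⟩ := by
  induction k with
  | zero => rfl
  | succ k ih =>
    rw [pow_succ, ih, aPw_succ]
    congr 1
    apply Fin.ext
    rw [Fin.val_add]
    show (k % 11 + 1) % 11 = (k + 1) % 11
    omega

theorem aM_pow11 : aM ^ 11 = 1 := by
  rw [aM_pow_eq]; rfl

theorem aG_pow11 : aG ^ 11 = 1 := by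
  apply Units.ext
  rw [Units.val_pow_eq_pow_val]
  exact aM_pow11

theorem Ph_inj (e : Q4 ≃+* F) : Function.Injective (Ph e) := by
  intro g h hgh
  apply Units.ext
  have h1 : ((Ph e g : GL (Fin 5) F) : M5 F) = ((Ph e h : GL (Fin 5) F) : M5 F) := by rw [hgh]
  rw [Ph_val, Ph_val] at h1
  ext i j
  have h2 := congrFun (congrFun h1 i) j
  simp only [Matrix.map_apply] at h2
  exact e.injective h2

theorem A_pow_eq (e : Q4 ≃+* F) (j : ℕ) : A e ^ j = Ph e (aG ^ j) := by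
  rw [map_pow]; rfl

theorem A_pow (e : Q4 ≃+* F) : A e ^ 11 = 1 := by
  rw [A_pow_eq, aG_pow11, map_one]

set_option maxRecDepth 100000 in
theorem aM_ne : aM ≠ 1 := by decide +kernel

theorem A_ne (e : Q4 ≃+* F) : A e ≠ 1 := by
  intro h
  have h1 : Ph e aG = Ph e 1 := by rw [map_one]; exact h
  have h2 := Ph_inj e h1
  exact aM_ne (congrArg Units.val h2)

set_option maxRecDepth 100000 in
theorem bab : bM * aM * bI = aP4 := by decide +kernel

theorem BA (e : Q4 ≃+* F) : B e * A e * (B e)⁻¹ = A e ^ 4 := by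
  rw [A_pow_eq]
  have h : bG * aG * bG⁻¹ = aG ^ 4 := by
    apply Units.ext
    rw [Units.val_pow_eq_pow_val]
    show bM * aM * bI = aM ^ 4
    rw [aM_pow_eq, bab]; rfl
  rw [← h, map_mul, map_mul, map_inv]; rfl

set_option maxRecDepth 100000 in
theorem tat : ∀ k : Fin 11, tM * aM * tM ≠ aPw k := by decide +kernel

theorem T_not (e : Q4 ≃+* F) (j : ℕ) : T e * A e * (T e)⁻¹ ≠ A e ^ j := by
  intro h
  rw [A_pow_eq] at h
  have h1 : Ph e (tG * aG * tG⁻¹) = Ph e (aG ^ j) := by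
    rw [← h, map_mul, map_mul, map_inv]; rfl
  have h2 := congrArg Units.val (Ph_inj e h1)
  rw [Units.val_pow_eq_pow_val] at h2
  have h3 : tM * aM * tM = aM ^ j := h2
  rw [aM_pow_eq] at h3
  exact tat _ h3

end Cfsg.Agent.Lib.Helper14.SU5
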