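import Cfsg.Agent.Lib.Helper14.SU5.Defs

set_option autoImplicit false

namespace Cfsg.Agent.Lib.Helper14.SU5

open Cfsg Cfsg.Geo Cfsg.Agent.Lib.Helper32.AschU
open Cfsg.Agent.Lib.Helper43.TT54 (Q4)
open scoped MatrixGroups Matrix

variable {F : Type*} [Field F]

theorem stb_map_mulVec (e : Q4 ≃+* F) (M : M5 Q4) (u : Fin 5 → Q4) :
    (M.map e) *ᵥ (fun i => e (u i)) = fun i => e ((M *ᵥ u) i) := by
  ext i
  exact (RingHom.map_mulVec (e : Q4 →+* F) M u i).symm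

theorem stb_fwd (e : Q4 ≃+* F) (g : GL (Fin 5) Q4) (h : ∀ u ∈ omL, (g : M5 Q4) *ᵥ u ∈ omL) :
    ∀ v ∈ Om e, ((Ph e g : GL (Fin 5) F) : M5 F) *ᵥ v ∈ Om e := by
  rintro v ⟨u, hu, rfl⟩
  rw [Ph_val, stb_map_mulVec]
  exact ⟨_, h u hu, rfl⟩

theorem stb_mem (e : Q4 ≃+* F) (g : GL (Fin 5) Q4) (h : ∀ u ∈ omL, (g : M5 Q4) *ᵥ u ∈ omL)
    (h' : ∀ u ∈ omL, ((g⁻¹ : GL (Fin 5) Q4) : M5 Q4) *ᵥ u ∈ omL) : Ph e g ∈ Stab (Om e) := by
  rw [mem_Stab]
  intro v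
  constructor
  · exact stb_fwd e g h v
  · intro hv
    have := stb_fwd e g⁻¹ h' _ hv
    rwa [Matrix.mulVec_mulVec, ← Units.val_mul, ← map_mul, inv_mul_cancel, map_one, Units.val_one,
      Matrix.one_mulVec] at this

set_option maxRecDepth 1000000 in
theorem stb_a : ∀ u ∈ omL, aM *ᵥ u ∈ omL := by decide +kernel

set_option maxRecDepth 1000000 in
theorem stb_a' : ∀ u ∈ omL, aI *ᵥ u ∈ omL := by decide +kernel

set_option maxRecDepth 1000000 in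
theorem stb_b : ∀ u ∈ omL, bM *ᵥ u ∈ omL := by decide +kernel

set_option maxRecDepth 1000000 in
theorem stb_b' : ∀ u ∈ omL, bI *ᵥ u ∈ omL := by decide +kernel

set_option maxRecDepth 1000000 in
theorem stb_t : ∀ u ∈ omL, tM *ᵥ u ∈ omL := by decide +kernel

set_option maxRecDepth 1000000 in
theorem stb_s : ∃ u ∈ omL, sM *ᵥ u ∉ omL := by decide +kernel

theorem A_stab (e : Q4 ≃+* F) : A e ∈ Stab (Om e) := stb_mem e aG stb_a stb_a'

theorem B_stab (e : Q4 ≃+* F) : B e ∈ Stab (Om e) := stb_mem e bG stb_b stb_b'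

theorem T_stab (e : Q4 ≃+* F) : T e ∈ Stab (Om e) := stb_mem e tG stb_t stb_t

theorem S_not (e : Q4 ≃+* F) : S e ∉ Stab (Om e) := by
  intro h
  obtain ⟨u, hu, hnot⟩ := stb_s
  have h1 := ((mem_Stab _ _).1 h (fun i => e (u i))).1 ⟨u, hu, rfl⟩
  have h2 : ((S e : GL (Fin 5) F) : M5 F) = sM.map e := rfl
  rw [h2, stb_map_mulVec] at h1
  obtain ⟨u', hu', heq⟩ := h1
  apply hnot
  have : sM *ᵥ u = u' := by
    ext i
    exact e.injective (congrFun heq i)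
  rw [this]
  exact hu'

end Cfsg.Agent.Lib.Helper14.SU5
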