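import Cfsg.Agent.Lib.Helper14.SU5.Defs
import Cfsg.Agent.Lib.Helper14.SU5.REL

set_option autoImplicit false

namespace Cfsg.Agent.Lib.Helper14.SU5

open Cfsg Cfsg.Geo Cfsg.Agent.Lib.Helper32.AschU
open Cfsg.Agent.Lib.Helper43.TT54 (Q4)
open scoped MatrixGroups Matrix

variable {F : Type*} [Field F]

theorem trc_map (e : Q4 ≃+* F) (M : M5 Q4) : Matrix.trace (M.map e) = e (Matrix.trace M) := by
  simp [Matrix.trace, map_sum]

theorem trc_pow (e : Q4 ≃+* F) (j : ℕ) :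
    Matrix.trace ((A e ^ j : GL (Fin 5) F) : M5 F) =
      e (Matrix.trace (aPw ⟨j % 11, Nat.mod_lt _ (by norm_num)⟩)) := by
  rw [A_pow_eq, Ph_val, trc_map, Units.val_pow_eq_pow_val]
  show e (Matrix.trace (aM ^ j)) = _
  rw [aM_pow_eq]

theorem trc_one (e : Q4 ≃+* F) :
    Matrix.trace ((A e : GL (Fin 5) F) : M5 F) = e (Matrix.trace aM) := by
  show Matrix.trace ((Ph e aG : GL (Fin 5) F) : M5 F) = _
  rw [Ph_val, trc_map]; rfl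

set_option maxRecDepth 100000 in
theorem trc_R : ∀ k : Fin 11, Matrix.trace (aPw k) = Matrix.trace aM →
    (k : ℕ) = 1 ∨ (k : ℕ) = 3 ∨ (k : ℕ) = 4 ∨ (k : ℕ) = 5 ∨ (k : ℕ) = 9 := by decide +kernel

set_option maxRecDepth 100000 in
theorem trc_Q : ∀ k : Fin 11, Matrix.trace (aPw k) = (Matrix.trace aM) ^ 2 →
    (k : ℕ) = 2 ∨ (k : ℕ) = 6 ∨ (k : ℕ) = 7 ∨ (k : ℕ) = 8 ∨ (k : ℕ) = 10 := by decide +kernel

theorem trR (e : Q4 ≃+* F) (j : ℕ)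
    (h : Matrix.trace ((A e ^ j : GL (Fin 5) F) : M5 F) = Matrix.trace ((A e : GL (Fin 5) F) : M5 F)) :
    j % 11 = 1 ∨ j % 11 = 3 ∨ j % 11 = 4 ∨ j % 11 = 5 ∨ j % 11 = 9 := by
  rw [trc_pow, trc_one] at h
  exact trc_R _ (e.injective h)

theorem trQ (e : Q4 ≃+* F) (j : ℕ)
    (h : Matrix.trace ((A e ^ j : GL (Fin 5) F) : M5 F) =
      (Matrix.trace ((A e : GL (Fin 5) F) : M5 F)) ^ 2) :
    j % 11 = 2 ∨ j % 11 = 6 ∨ j % 11 = 7 ∨ j % 11 = 8 ∨ j % 11 = 10 := by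
  rw [trc_pow, trc_one, ← map_pow] at h
  exact trc_Q _ (e.injective h)

end Cfsg.Agent.Lib.Helper14.SU5
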