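import Cfsg.Agent.Lib.Helper14.SU5.Defs
import Cfsg.Agent.Lib.Helper14.SU5.MEM
import Cfsg.Agent.Lib.Helper14.SU5.REL
import Cfsg.Agent.Lib.Helper14.SU5.TRC
import Cfsg.Agent.Lib.Helper14.SU5.STB
import Cfsg.Agent.Lib.Helper14.SU5.CENT

set_option autoImplicit false

namespace Cfsg.Agent.Lib.Helper14.SU5

open Cfsg Cfsg.Geo Cfsg.Agent.Lib.Helper32.AschU
open Cfsg.Agent.Lib.Helper43.TT54 (Q4)
open scoped MatrixGroups Matrix

variable {F : Type*} [Field F]

theorem norm_Bk (e : Q4 ≃+* F) (k : ℕ) : B e ^ k * A e * (B e ^ k)⁻¹ = A e ^ (4 ^ k) := by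
  induction k with
  | zero => simp
  | succ k ih =>
    have h1 : B e ^ (k + 1) * A e * (B e ^ (k + 1))⁻¹ =
        B e * (B e ^ k * A e * (B e ^ k)⁻¹) * (B e)⁻¹ := by
      rw [pow_succ']
      group
    rw [h1, ih, ← conj_pow, BA, ← pow_mul, pow_succ, mul_comm]

theorem norm_det_A [Fintype F] (hF : Fintype.card F = 2 ^ 2) (e : Q4 ≃+* F) (m : ℕ) :
    ((A e ^ m : GL (Fin 5) F) : M5 F).det = 1 := by
  have h := (A_mem hF e).2
  have h1 : A e ^ m ∈ specialLinear (Fin 5) F := Subgroup.pow_mem _ h m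
  have h2 : Matrix.GeneralLinearGroup.det (A e ^ m) = 1 := h1
  have h3 := congrArg Units.val h2
  rw [Matrix.GeneralLinearGroup.val_det_apply, Units.val_one] at h3
  exact h3

theorem norm [Fintype F] (hF : Fintype.card F = 2 ^ 2) (e : Q4 ≃+* F) (h : GL (Fin 5) F)
    (hh : h ∈ SUg 5 F 2) (i : ℕ) (hi : h * A e * h⁻¹ = A e ^ i) : h ∈ Stab (Om e) := by
  have htr : Matrix.trace ((A e ^ i : GL (Fin 5) F) : M5 F) =
      Matrix.trace ((A e : GL (Fin 5) F) : M5 F) := by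
    rw [← hi, Units.val_mul, Units.val_mul, Matrix.trace_mul_cycle, ← Units.val_mul, inv_mul_cancel,
      Units.val_one, one_mul]
  have hmod := trR e i htr
  obtain ⟨k, hk⟩ : ∃ k : ℕ, 4 ^ k % 11 = i % 11 := by
    rcases hmod with h | h | h | h | h
    · exact ⟨0, by rw [h]; norm_num⟩
    · exact ⟨4, by rw [h]; norm_num⟩
    · exact ⟨1, by rw [h]; norm_num⟩
    · exact ⟨2, by rw [h]; norm_num⟩
    · exact ⟨3, by rw [h]; norm_num⟩
  have hAi : A e ^ i = A e ^ (4 ^ k) := by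
    rw [pow_eq_pow_mod i (A_pow e), pow_eq_pow_mod (4 ^ k) (A_pow e), hk]
  obtain ⟨c, hc⟩ : ∃ c : GL (Fin 5) F, c = (B e ^ k)⁻¹ * h := ⟨_, rfl⟩
  have hcA : c * A e = A e * c := by
    have h1 : h * A e = A e ^ (4 ^ k) * h := by
      rw [← hAi, ← hi]; group
    have h2 : A e ^ (4 ^ k) * B e ^ k = B e ^ k * A e := by
      rw [← norm_Bk]; group
    have h3 : (B e ^ k)⁻¹ * A e ^ (4 ^ k) = A e * (B e ^ k)⁻¹ := by
      rw [inv_mul_eq_iff_eq_mul, ← mul_assoc, ← h2]; group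
    rw [hc, mul_assoc, h1, ← mul_assoc, h3, mul_assoc]
  have hcSU : c ∈ SUg 5 F 2 := by
    rw [hc]
    exact Subgroup.mul_mem _ (Subgroup.inv_mem _ (Subgroup.pow_mem _ (B_mem hF e) k)) hh
  obtain ⟨l, m, hlm⟩ := cent hF e c hcSU.1 hcA
  have hdet : (c : M5 F).det = 1 := by
    have h2 : Matrix.GeneralLinearGroup.det c = 1 := hcSU.2
    have h3 := congrArg Units.val h2
    rw [Matrix.GeneralLinearGroup.val_det_apply, Units.val_one] at h3
    exact h3
  rw [hlm, Matrix.det_smul, norm_det_A hF e m, mul_one, Fintype.card_fin] at hdet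
  have hl0 : l ≠ 0 := by
    rintro rfl
    simp at hdet
  have hl3 : l ^ 3 = 1 := by
    have := FiniteField.pow_card_sub_one_eq_one l hl0
    rw [hF] at this
    exact this
  have hl1 : l = 1 := by
    have h2 : l ^ 2 = 1 := by
      have : l ^ 5 = l ^ 3 * l ^ 2 := by ring
      rw [this, hl3, one_mul] at hdet
      exact hdet
    have : l ^ 3 = l ^ 2 * l := by ring
    rw [this, h2, one_mul] at hl3
    exact hl3
  have hcm : c = A e ^ m := by
    apply Units.ext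
    rw [hlm, hl1, one_smul]
  have hh' : h = B e ^ k * A e ^ m := by
    rw [← hcm, hc]; group
  rw [hh']
  exact Subgroup.mul_mem _ (Subgroup.pow_mem _ (B_stab e) k) (Subgroup.pow_mem _ (A_stab e) m)

end Cfsg.Agent.Lib.Helper14.SU5
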