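import Cfsg.Agent.Lib.Helper14.SU5.Defs

set_option autoImplicit false

namespace Cfsg.Agent.Lib.Helper14.SU5

open Cfsg Cfsg.Geo Cfsg.Agent.Lib.Helper32.AschU
open Cfsg.Agent.Lib.Helper43.TT54 (Q4)
open scoped MatrixGroups Matrix

variable {F : Type*} [Field F]

theorem syl_aux {G : Type*} [Group G] [Finite G] (p : ℕ) [Fact p.Prime]
    (hp : ¬ p ^ 2 ∣ Nat.card G)
    (x y : G) (hx : orderOf x = p) (hy : orderOf y = p) :
    ∃ g : G, ∃ j : ℕ, g * x * g⁻¹ = y ^ j := by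
  have key : ∀ z : G, orderOf z = p → ∃ P : Sylow p G, (P : Subgroup G) = Subgroup.zpowers z := by
    intro z hz
    have hpg : IsPGroup p (Subgroup.zpowers z) := by
      apply IsPGroup.of_card (n := 1)
      rw [Nat.card_zpowers, hz, pow_one]
    obtain ⟨P, hP⟩ := hpg.exists_le_sylow
    refine ⟨P, ?_⟩
    symm
    apply Subgroup.eq_of_le_of_card_ge hP
    rw [Nat.card_zpowers, hz]
    obtain ⟨k, hk⟩ := (IsPGroup.iff_card.mp P.2)
    rw [hk]
    have hdvd : p ^ k ∣ Nat.card G := hk ▸ Subgroup.card_subgroup_dvd_card _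
    have hk2 : k < 2 := by
      by_contra hcon
      push Not at hcon
      exact hp ((pow_dvd_pow p hcon).trans hdvd)
    calc p ^ k ≤ p ^ 1 := Nat.pow_le_pow_right (Fact.out : p.Prime).pos (by omega)
      _ = p := pow_one p
  obtain ⟨P, hP⟩ := key x hx
  obtain ⟨Q, hQ⟩ := key y hy
  obtain ⟨g, hg⟩ := MulAction.exists_smul_eq G P Q
  refine ⟨g, ?_⟩
  have hmem : g * x * g⁻¹ ∈ (Q : Subgroup G) := by
    rw [← hg, Sylow.smul_def, Sylow.pointwise_smul_def]
    have hxP : x ∈ (P : Subgroup G) := by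
      rw [hP]; exact Subgroup.mem_zpowers x
    have := Subgroup.smul_mem_pointwise_smul x (MulAut.conj g) (P : Subgroup G) hxP
    simpa [MulAut.smul_def] using this
  rw [hQ, ← mem_powers_iff_mem_zpowers] at hmem
  obtain ⟨j, hj⟩ := hmem
  exact ⟨j, hj.symm⟩

theorem syl [Fintype F] (hF : Fintype.card F = 2 ^ 2) (G' : Subgroup (GL (Fin 5) F))
    (x y : GL (Fin 5) F) (hx : x ∈ G') (hy : y ∈ G') (hx11 : orderOf x = 11) (hy11 : orderOf y = 11) :
    ∃ g ∈ G', ∃ j : ℕ, g * x * g⁻¹ = y ^ j := by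
  haveI : Fact (Nat.Prime 11) := ⟨by norm_num⟩
  have hcard : ¬ 11 ^ 2 ∣ Nat.card G' := by
    intro h
    have h2 : 11 ^ 2 ∣ Nat.card (GL (Fin 5) F) := h.trans (Subgroup.card_subgroup_dvd_card _)
    rw [Matrix.card_GL_field, hF] at h2
    simp only [Fin.prod_univ_succ, Fin.prod_univ_zero] at h2
    revert h2
    simp
  obtain ⟨g, j, hgj⟩ := syl_aux (G := G') 11 hcard ⟨x, hx⟩ ⟨y, hy⟩
    (by rw [← hx11]; exact Subgroup.orderOf_mk x hx) (by rw [← hy11]; exact Subgroup.orderOf_mk y hy)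
  refine ⟨g, g.2, j, ?_⟩
  have := congrArg (Subtype.val) hgj
  simpa using this

end Cfsg.Agent.Lib.Helper14.SU5
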