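import Cfsg.Agent.Lib.Helper14.SU5.Defs
import Cfsg.Agent.Lib.Helper14.SU5.NORM
import Cfsg.Agent.Lib.Helper14.SU5.SYL
import Cfsg.Agent.Lib.Helper34.SU5KP

set_option autoImplicit false

namespace Cfsg.Agent.Lib.Helper14.SU5

open Cfsg Cfsg.Geo Cfsg.Agent.Lib.Helper32.AschU
open Cfsg.Agent.Lib.Helper43.TT54 (Q4)
open scoped MatrixGroups Matrix

variable {F : Type*} [Field F]

/-- the normaliser `11:5` of a degree 5 field subalgebra is not maximal in `SU_5(2)`. -/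
theorem no_c3 [Fintype F] (hF : Fintype.card F = 2 ^ 2) (K : Subalgebra F (M5 F))
    (hK : IsFieldSubalgebra 5 K) (hadj : IsAdjointClosedFor (hermForm 5 F 2) K)
    (hmax : IsMaximalIn (SUg 5 F 2) (subalgebraNormalizer K ⊓ SUg 5 F 2)) : False := by
  classical
  have hc : Fintype.card Q4 = Fintype.card F := by rw [hF]; rfl
  let e : Q4 ≃+* F := FiniteField.ringEquivOfCardEq hc
  obtain ⟨y, hy11, hyG, hyN⟩ := Cfsg.Agent.Lib.Helper34.SU5.exists_x (by rw [hF]; norm_num) K hK hadj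
  have : Fact (Nat.Prime 11) := ⟨by norm_num⟩
  have hA11 : orderOf (A e) = 11 := orderOf_eq_prime (A_pow e) (A_ne e)
  obtain ⟨g', hg'G, j, hj⟩ := syl hF (SUg 5 F 2) y (A e) hyG (A_mem hF e) hy11 hA11
  have hj0 : ¬ 11 ∣ j := by
    intro hd
    have h1 : A e ^ j = 1 := by
      obtain ⟨k, rfl⟩ := hd
      rw [pow_mul, A_pow, one_pow]
    rw [h1] at hj
    have h2 : y = 1 := by
      have h3 := congrArg (fun t => g'⁻¹ * t * g') hj
      simpa [mul_assoc] using h3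
    rw [h2, orderOf_one] at hy11
    omega
  obtain ⟨j', hj'⟩ : ∃ j', A e ^ (j * j') = A e := by
    have hcop : Nat.Coprime j 11 := ((Nat.Prime.coprime_iff_not_dvd (by norm_num)).2 hj0).symm
    obtain ⟨j', -, hj'⟩ := Nat.exists_mul_mod_eq_one_of_coprime hcop (by norm_num)
    refine ⟨j', ?_⟩
    rw [← pow_mod_orderOf, hA11, hj', pow_one]
  have claim : ∀ h ∈ subalgebraNormalizer K ⊓ SUg 5 F 2,
      ∃ i : ℕ, (g' * h * g'⁻¹) * A e * (g' * h * g'⁻¹)⁻¹ = A e ^ i := by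
    intro h hh
    have hfin : IsOfFinOrder y := orderOf_pos_iff.1 (by rw [hy11]; norm_num)
    obtain ⟨i, hi⟩ := (hfin.mem_powers_iff_mem_zpowers).2 (hyN h hh.1)
    have hi : h * y * h⁻¹ = y ^ i := hi.symm
    refine ⟨i, ?_⟩
    have h3 : (g' * h * g'⁻¹) * (A e ^ j) * (g' * h * g'⁻¹)⁻¹ = (A e ^ j) ^ i := by
      rw [← hj]
      calc (g' * h * g'⁻¹) * (g' * y * g'⁻¹) * (g' * h * g'⁻¹)⁻¹
          = g' * (h * y * h⁻¹) * g'⁻¹ := by group
        _ = g' * y ^ i * g'⁻¹ := by rw [hi]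
        _ = (g' * y * g'⁻¹) ^ i := (conj_pow).symm
    calc (g' * h * g'⁻¹) * A e * (g' * h * g'⁻¹)⁻¹
        = (g' * h * g'⁻¹) * (A e ^ j) ^ j' * (g' * h * g'⁻¹)⁻¹ := by rw [← pow_mul, hj']
      _ = ((g' * h * g'⁻¹) * (A e ^ j) * (g' * h * g'⁻¹)⁻¹) ^ j' := (conj_pow).symm
      _ = ((A e ^ j) ^ i) ^ j' := by rw [h3]
      _ = (A e ^ (j * j')) ^ i := by rw [← pow_mul, ← pow_mul, ← pow_mul]; congr 1; ring
      _ = A e ^ i := by rw [hj']
  let S' : Subgroup (GL (Fin 5) F) :=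
    (Stab (Om e) ⊓ SUg 5 F 2).comap (MulAut.conj g').toMonoidHom
  have hmemS' : ∀ h, h ∈ S' ↔ g' * h * g'⁻¹ ∈ Stab (Om e) ⊓ SUg 5 F 2 := by
    intro h
    rfl
  have hle1 : subalgebraNormalizer K ⊓ SUg 5 F 2 ≤ S' := by
    intro h hh
    rw [hmemS']
    obtain ⟨i, hi⟩ := claim h hh
    have hG : g' * h * g'⁻¹ ∈ SUg 5 F 2 := mul_mem (mul_mem hg'G hh.2) (inv_mem hg'G)
    exact ⟨norm hF e _ hG i hi, hG⟩
  have hle2 : S' ≤ SUg 5 F 2 := by
    intro h hh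
    rw [hmemS'] at hh
    have h1 : g'⁻¹ * (g' * h * g'⁻¹) * g' ∈ SUg 5 F 2 := mul_mem (mul_mem (inv_mem hg'G) hh.2) hg'G
    have h2 : g'⁻¹ * (g' * h * g'⁻¹) * g' = h := by group
    rwa [h2] at h1
  rcases hmax.2 S' hle1 hle2 with h | h
  · have ht : g'⁻¹ * T e * g' ∈ S' := by
      rw [hmemS']
      have h2 : g' * (g'⁻¹ * T e * g') * g'⁻¹ = T e := by group
      rw [h2]
      exact ⟨T_stab e, T_mem hF e⟩
    rw [h] at ht
    obtain ⟨i, hi⟩ := claim _ ht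
    have h2 : g' * (g'⁻¹ * T e * g') * g'⁻¹ = T e := by group
    rw [h2] at hi
    exact T_not e i hi
  · have hs : g'⁻¹ * S e * g' ∈ SUg 5 F 2 := mul_mem (mul_mem (inv_mem hg'G) (S_mem hF e)) hg'G
    rw [← h, hmemS'] at hs
    have h2 : g' * (g'⁻¹ * S e * g') * g'⁻¹ = S e := by group
    rw [h2] at hs
    exact S_not e hs.1

end Cfsg.Agent.Lib.Helper14.SU5
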