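import Cfsg.Agent.Lib.Helper14.SU5.Defs
import Cfsg.Agent.Lib.Helper14.SU5.ROOT11
import Cfsg.Agent.Lib.Helper14.SU5.TRC
import Cfsg.Agent.Lib.Helper14.SU5.REL
import Cfsg.Agent.Lib.Helper14.SU5.MEM
import Cfsg.Agent.Lib.Helper17.UnitCoord

set_option autoImplicit false

namespace Cfsg.Agent.Lib.Helper14.SU5

open Cfsg Cfsg.Geo Cfsg.Agent.Lib.Helper32.AschU
open Cfsg.Agent.Lib.Helper43.TT54 (Q4)
open Cfsg.Agent.Lib.Helper17 (hermForm_conj hermForm_sub_right hermForm_right_eq_zero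
  hermForm_single_left hermForm_single_right sum_pow_q)
open scoped MatrixGroups Matrix

variable {F : Type*} [Field F]

theorem unit11_uniq [Fintype F] (hF : Fintype.card F = 2 ^ 2) (M M' : M5 F)
    (h : ∀ u v, hermForm 5 F 2 u (M *ᵥ v) = hermForm 5 F 2 u (M' *ᵥ v)) : M = M' := by
  apply Matrix.ext_iff_mulVec.mpr
  intro v
  rw [← sub_eq_zero]
  apply hermForm_right_eq_zero hF
  intro u
  rw [hermForm_sub_right hF, h, sub_self]

theorem unit11_pow (Y k' : M5 F)
    (h : ∀ u v, hermForm 5 F 2 (Y *ᵥ u) v = hermForm 5 F 2 u (k' *ᵥ v)) (n : ℕ) :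
    ∀ u v, hermForm 5 F 2 ((Y ^ n) *ᵥ u) v = hermForm 5 F 2 u ((k' ^ n) *ᵥ v) := by
  induction n with
  | zero => intro u v; simp
  | succ n ih =>
    intro u v
    rw [pow_succ, ← Matrix.mulVec_mulVec, ih, h, Matrix.mulVec_mulVec, ← pow_succ']

theorem unit11_trace (g y : GL (Fin 5) F) :
    Matrix.trace ((g * y * g⁻¹ : GL (Fin 5) F) : M5 F) = Matrix.trace (y : M5 F) := by
  rw [Units.val_mul, Units.val_mul, Matrix.trace_mul_cycle, ← Units.val_mul, inv_mul_cancel,
    Units.val_one, one_mul]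

theorem unit11 [Fintype F] (hF : Fintype.card F = 2 ^ 2) (e : Q4 ≃+* F) (K : Subalgebra F (M5 F))
    (hK : IsFieldSubalgebra 5 K) (hadj : IsAdjointClosedFor (hermForm 5 F 2) K)
    (y g : GL (Fin 5) F) (hy : (y : M5 F) ∈ K) (hg : g * y * g⁻¹ = A e) : y ∈ SUg 5 F 2 := by
  have hyA : y = g⁻¹ * A e * g := by rw [← hg]; group
  have hy11' : y ^ 11 = 1 := by
    have : (g * y * g⁻¹) ^ 11 = 1 := by rw [hg, A_pow]
    rw [conj_pow] at this
    have h2 : y ^ 11 = g⁻¹ * (g * y ^ 11 * g⁻¹) * g := by group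
    rw [h2, this]; group
  have hy1 : y ≠ 1 := by
    rintro rfl
    apply A_ne e
    rw [← hg]; group
  haveI : Fact (Nat.Prime 11) := ⟨by norm_num⟩
  have hy11 : orderOf y = 11 := orderOf_eq_prime hy11' hy1
  obtain ⟨k', hk'K, hk'⟩ := hadj (y : M5 F) hy
  have hpow := unit11_pow (y : M5 F) k' hk'
  have hYm : (y : M5 F) ^ 11 = 1 := by
    rw [← Units.val_pow_eq_pow_val, hy11', Units.val_one]
  have hk11 : k' ^ 11 = 1 := by
    apply unit11_uniq hF
    intro u v
    rw [← hpow 11 u v, hYm, Matrix.one_mulVec, Matrix.one_mulVec]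
  obtain ⟨z, hz⟩ : ∃ z : GL (Fin 5) F, (z : M5 F) = k' :=
    ⟨⟨k', k' ^ 10, by rw [← pow_succ', hk11], by rw [← pow_succ, hk11]⟩, rfl⟩
  have hz11 : z ^ 11 = 1 := by
    apply Units.ext
    rw [Units.val_pow_eq_pow_val, hz, hk11, Units.val_one]
  obtain ⟨i, hi⟩ := root11 K hK y z hy (by rw [hz]; exact hk'K) hy11 hz11
  have hki : k' = (y : M5 F) ^ i := by
    rw [← hz, hi, Units.val_pow_eq_pow_val]
  -- the adjoint of k' is y
  have hE : ∀ u v, hermForm 5 F 2 (k' *ᵥ u) v = hermForm 5 F 2 u ((y : M5 F) *ᵥ v) := by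
    intro u v
    rw [← hermForm_conj hF 5 v (k' *ᵥ u), ← hk', hermForm_conj hF]
  have hii : y = y ^ (i * i) := by
    apply Units.ext
    rw [Units.val_pow_eq_pow_val, pow_mul, ← hki]
    apply unit11_uniq hF
    intro u v
    rw [← hE, ← hpow i u v, ← hki]
  have hmod : i * i ≡ 1 [MOD 11] := by
    have h1 : y ^ (i * i) = y ^ 1 := by rw [pow_one]; exact hii.symm
    rw [pow_eq_pow_iff_modEq, hy11] at h1
    exact h1
  -- traces
  have hdiag : ∀ a, k' a a = ((y : M5 F) a a) ^ 2 := by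
    intro a
    have h1 := hk' (Pi.single a 1) (Pi.single a 1)
    rw [hermForm_single_right 2 5 (by norm_num), hermForm_single_left] at h1
    have h2 : ((y : M5 F) *ᵥ Pi.single a 1) a = (y : M5 F) a a := by simp
    have h3 : (k' *ᵥ Pi.single a 1) a = k' a a := by simp
    rw [h2, h3] at h1
    rw [h1, ← pow_mul]
    have := FiniteField.pow_card (k' a a)
    rw [hF] at this
    exact this.symm
  have htr : Matrix.trace k' = (Matrix.trace (y : M5 F)) ^ 2 := by
    unfold Matrix.trace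
    rw [sum_pow_q hF]
    exact Finset.sum_congr rfl (fun a _ => hdiag a)
  have htrA : Matrix.trace ((A e : GL (Fin 5) F) : M5 F) = Matrix.trace (y : M5 F) := by
    rw [← hg, unit11_trace]
  have htrAi : Matrix.trace ((A e ^ i : GL (Fin 5) F) : M5 F) = Matrix.trace k' := by
    rw [← hg, conj_pow, unit11_trace, ← hi, hz]
  have hQ := trQ e i (by rw [htrAi, htr, htrA])
  have hi10 : i % 11 = 10 := by
    have h1 : (i * i) % 11 = 1 := hmod
    rw [Nat.mul_mod] at h1
    rcases hQ with h | h | h | h | h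
    · rw [h] at h1; norm_num at h1
    · rw [h] at h1; norm_num at h1
    · rw [h] at h1; norm_num at h1
    · rw [h] at h1; norm_num at h1
    · exact h
  have hzy : z * y = 1 := by
    rw [hi, pow_eq_pow_mod i hy11', hi10, ← pow_succ, hy11']
  have hky : k' * (y : M5 F) = 1 := by
    rw [← hz, ← Units.val_mul, hzy, Units.val_one]
  refine ⟨?_, ?_⟩
  · intro u v
    change hermForm 5 F 2 ((y : M5 F) *ᵥ u) ((y : M5 F) *ᵥ v) = hermForm 5 F 2 u v
    rw [hk', Matrix.mulVec_mulVec, hky, Matrix.one_mulVec]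
  · have h1 : Matrix.GeneralLinearGroup.det (A e) = 1 := (A_mem hF e).2
    change Matrix.GeneralLinearGroup.det y = 1
    rw [← hg, map_mul, map_mul, map_inv, mul_comm, inv_mul_cancel_left] at h1
    exact h1

end Cfsg.Agent.Lib.Helper14.SU5
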